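import Cfsg.Agent.PGrp.ES

/-!
The Heisenberg group `Heis β = V × R` of a bilinear form `β` (helper2): product
`(v, s) (w, t) = (v + w, s + t + β v w)`; over `ZMod p` it satisfies `IsES p Heis.z` with commutator form
`β v w - β w v` and power map `(p choose 2) β v v` (`Heis.equiv`, `Heis.B_eq`, `Heis.pw_eq`); existence of
extraspecial `2`-groups with a prescribed quadratic form (`exists_ES_of_quad`).
-/

namespace Cfsg.Agent.PGrp

open Subgroup Module
open scoped commutatorElement

/-- The Heisenberg group of a bilinear form. -/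
@[ext] structure Heis {R V : Type*} [CommRing R] [AddCommGroup V] [Module R V] (β : LinearMap.BilinForm R V) where
  v : V
  s : R

namespace Heis

section
variable {R V : Type*} [CommRing R] [AddCommGroup V] [Module R V] {β : LinearMap.BilinForm R V}

instance instMul : Mul (Heis β) := ⟨fun a b => ⟨a.v + b.v, a.s + b.s + β a.v b.v⟩⟩
instance instOne : One (Heis β) := ⟨⟨0, 0⟩⟩
instance instInv : Inv (Heis β) := ⟨fun a => ⟨-a.v, -a.s + β a.v a.v⟩⟩
@[simp] theorem mul_v (a b : Heis β) : (a * b).v = a.v + b.v := rfl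
@[simp] theorem mul_s (a b : Heis β) : (a * b).s = a.s + b.s + β a.v b.v := rfl
@[simp] theorem one_v : (1 : Heis β).v = 0 := rfl
@[simp] theorem one_s : (1 : Heis β).s = 0 := rfl
@[simp] theorem inv_v (a : Heis β) : a⁻¹.v = -a.v := rfl
@[simp] theorem inv_s (a : Heis β) : a⁻¹.s = -a.s + β a.v a.v := rfl

instance instGroup : Group (Heis β) := Group.ofLeftAxioms
  (fun a b c => by ext <;> simp <;> abel) (fun a => by ext <;> simp) (fun a => by ext <;> simp)

/-- The underlying set. -/
def equivProd (β : LinearMap.BilinForm R V) : Heis β ≃ V × R := ⟨fun a => (a.v, a.s), fun a => ⟨a.1, a.2⟩, fun _ => rfl, fun _ => rfl⟩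
instance instFinite [Finite V] [Finite R] : Finite (Heis β) := Finite.of_equiv _ (equivProd β).symm
theorem card (β : LinearMap.BilinForm R V) : Nat.card (Heis β) = Nat.card V * Nat.card R := by
  rw [Nat.card_congr (equivProd β), Nat.card_prod]

theorem pow_eq (a : Heis β) (n : ℕ) : a ^ n = ⟨n • a.v, n • a.s + n.choose 2 • β a.v a.v⟩ := by
  induction n with
  | zero => ext <;> simp
  | succ n ih => rw [pow_succ, ih]; ext <;> simp [Nat.choose_succ_succ', succ_nsmul]; ring
theorem comm_eq (a b : Heis β) : ⁅a, b⁆ = ⟨0, β a.v b.v - β b.v a.v⟩ := by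
  rw [commutatorElement_def]; ext <;> simp; ring

/-- The central generator. -/
def z (β : LinearMap.BilinForm R V) : Heis β := ⟨0, 1⟩
theorem z_pow (n : ℕ) : z β ^ n = ⟨0, n⟩ := by rw [pow_eq]; simp [z]
end

variable {p : ℕ} [hp : Fact p.Prime] {V : Type*} [AddCommGroup V] [Module (ZMod p) V]
  (β : LinearMap.BilinForm (ZMod p) V)

theorem z_pow_val (s : ZMod p) : z β ^ s.val = ⟨0, s⟩ := by rw [z_pow, ZMod.natCast_zmod_val]
theorem mem_zpowers_z {a : Heis β} : a ∈ zpowers (z β) ↔ a.v = 0 := by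
  refine ⟨?_, fun h => ⟨a.s.val, by simp only [zpow_natCast, z_pow_val, ← h]⟩⟩
  rintro ⟨k, rfl⟩
  exact (map_zpow (MonoidHom.mk' (fun a : Heis β => Multiplicative.ofAdd a.v) fun _ _ => rfl) _ k).trans (one_zpow k)

theorem isES : IsES p (z β) where
  ord := orderOf_eq_prime (by rw [z_pow, ZMod.natCast_self]; rfl) fun h => one_ne_zero (congrArg Heis.s h)
  cen := mem_center_iff.2 fun g => by ext <;> simp [z, add_comm]
  comm a b := (mem_zpowers_z β).2 (by rw [comm_eq])
  pow a := (mem_zpowers_z β).2 (by rw [pow_eq, ← Nat.cast_smul_eq_nsmul (ZMod p), ZMod.natCast_self, zero_smul])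

/-- The quotient by the centre. -/
noncomputable def equiv : V ≃ₗ[ZMod p] (isES β).V :=
  .ofBijective (AddMonoidHom.toZModLinearMap p (AddMonoidHom.mk' (fun v => (isES β).π ⟨v, 0⟩) fun a b => by
    rw [← IsES.mk_mul, IsES.mk_eq_mk, mem_zpowers_z]; simp))
    ⟨(injective_iff_map_eq_zero _).2 fun v hv => (mem_zpowers_z β).1 ((isES β).mk_eq_zero.1 hv), fun v => by
      obtain ⟨a, rfl⟩ := (isES β).mk_surjective v
      exact ⟨a.v, (isES β).mk_eq_mk.2 (by rw [mem_zpowers_z]; simp)⟩⟩

theorem equiv_apply (v : V) : equiv β v = (isES β).π ⟨v, 0⟩ := rfl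
theorem B_eq (v w : V) : (isES β).B (equiv β v) (equiv β w) = β v w - β w v :=
  (isES β).ez_injective (by rw [equiv_apply, equiv_apply, IsES.ez_B, comm_eq, IsES.ez, z_pow_val])
theorem pw_eq (v : V) : (isES β).pw (equiv β v) = p.choose 2 • β v v :=
  (isES β).ez_injective (by
    rw [equiv_apply, IsES.ez_pw, pow_eq, IsES.ez, z_pow_val, ← Nat.cast_smul_eq_nsmul (ZMod p), ZMod.natCast_self]
    simp)

theorem center_eq (h : ∀ v, (∀ w, β v w = β w v) → v = 0) : center (Heis β) = zpowers (z β) :=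
  (isES β).nondeg_iff.1 fun v hv => by
    obtain ⟨v, rfl⟩ := (equiv β).surjective v
    rw [h v fun w => sub_eq_zero.1 ((B_eq β v w).symm.trans (hv _)), map_zero]

theorem pow_eq_one (h2 : p ≠ 2) (a : Heis β) : a ^ p = 1 := by
  obtain ⟨k, hk⟩ := dvd_choose_two hp.out h2
  rw [pow_eq, hk, ← Nat.cast_smul_eq_nsmul (ZMod p), ZMod.natCast_self]
  ext <;> simp

theorem isExtraspecial [Finite V] [Nontrivial V] (h : ∀ v, (∀ w, β v w = β w v) → v = 0) :
    IsExtraspecial p (Heis β) :=
  (isES β).isExtraspecial (center_eq β h) fun hc => by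
    obtain ⟨v, hv⟩ := exists_ne (0 : V)
    exact hv (h v fun w => by simpa using congrArg Heis.s (hc.1.1 ⟨v, 0⟩ ⟨w, 0⟩))

end Heis

/-- Every quadratic form over `ZMod 2` comes from a group. -/
theorem exists_ES_of_quad {V : Type*} [AddCommGroup V] [Module (ZMod 2) V] (Q : QuadraticForm (ZMod 2) V) :
    ∃ β : LinearMap.BilinForm (ZMod 2) V, (Geom.Formed.ofQuad Q).IsIso (Heis.isES β).quad (Heis.equiv β) := by
  obtain ⟨β, rfl⟩ := LinearMap.BilinMap.toQuadraticMap_surjective Q
  exact ⟨β, Geom.Formed.isIso_ofQuad fun v => by simp [IsES.Q_apply, Heis.pw_eq]⟩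

/-- Extraspecial `2`-groups of both types exist. -/
theorem exists_ES_two {m k : ℕ} (hk : k = m + 1 ∨ k = m) : ∃ (E : Type) (_ : Group E) (_ : Finite E) (z : E)
    (h : IsES 2 z), IsExtraspecial 2 E ∧ Nat.card E = 2 ^ (2 * (m + 1) + 1) ∧ h.quad.WittIndex k := by
  have key : ∀ {ι : Type} [Fintype ι] (Q : QuadraticForm (ZMod 2) (ι → ZMod 2)), Fintype.card ι = 2 * (m + 1) →
      (Geom.Formed.ofQuad Q).Nondeg → (Geom.Formed.ofQuad Q).WittIndex k → ∃ (E : Type) (_ : Group E) (_ : Finite E)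
      (z : E) (h : IsES 2 z), IsExtraspecial 2 E ∧ Nat.card E = 2 ^ (2 * (m + 1) + 1) ∧ h.quad.WittIndex k :=
    fun {ι} _ Q hc hQ hk => by
      obtain ⟨β, h⟩ := exists_ES_of_quad Q
      have hZ := (Heis.isES β).quad_nondeg_iff.1 (h.nondeg hQ)
      have h1 : Nat.card (Heis β) = 2 ^ (2 * (m + 1) + 1) := by
        rw [Heis.card, Nat.card_fun, Nat.card_zmod, Nat.card_eq_fintype_card, hc, pow_succ]
      refine ⟨Heis β, inferInstance, inferInstance, _, Heis.isES β, (Heis.isES β).isExtraspecial hZ fun hc => ?_, h1,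
        h.wittIndex hk⟩
      rw [← card_top, ← center_eq_top, hZ, (Heis.isES β).card_zpowers, pow_succ] at h1
      have := Nat.one_lt_two_pow (n := 2 * (m + 1)) (by omega)
      omega
  rcases hk with rfl | rfl
  · exact key _ (by simp [two_mul]) (Geom.quadPlus_nondeg _ _) (Geom.quadPlus_wittIndex _ _)
  · exact key _ (by simp; ring) (Geom.quadMinus_nondeg _ _ (a := 1) (b := 1) (by decide))
      (Geom.quadMinus_wittIndex _ _ (by decide))

end Cfsg.Agent.PGrp
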